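import Mathlib
import Cfsg.Agent.S0721
import Cfsg.Agent.H4.MinNormal

namespace Cfsg.Agent.Lib.Helper19.SS

/-- an element `x` of prime order `t` normalizing an `s`-group `S` with `t ∤ |S| - 1`
commutes with an element of order `s` of `S`. -/
theorem exists_commute_of_normalizes {G : Type*} [Group G] [Finite G] (S : Subgroup G)
    {s t : ℕ} (hs : s.Prime) (ht : t.Prime) (hS : IsPGroup s S) (x : G) (hx : orderOf x = t)
    (hxS : ∀ y ∈ S, x * y * x⁻¹ ∈ S) (hnd : ¬ t ∣ Nat.card S - 1) :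
    ∃ z ∈ S, orderOf z = s ∧ Commute x z := by
  classical
  haveI := Fact.mk ht
  haveI := Fintype.ofFinite S
  let f : Function.End S := fun y => ⟨x * y * x⁻¹, hxS y y.2⟩
  have hfk : ∀ (k : ℕ) (y : S), (((f ^ k) y : S) : G) = x ^ k * y * (x ^ k)⁻¹ := by
    intro k
    induction k with
    | zero =>
      intro y
      simp only [pow_zero, one_mul, inv_one, mul_one]
      rfl
    | succ k ih =>
      intro y
      rw [pow_succ']
      show x * (((f ^ k) y : S) : G) * x⁻¹ = _
      rw [ih, pow_succ']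
      group
  have hf : f ^ t ^ 1 = 1 := by
    funext y
    apply Subtype.ext
    rw [pow_one, hfk, ← hx, pow_orderOf_eq_one]
    simp only [one_mul, inv_one, mul_one]
    rfl
  have h1 := Equiv.Perm.card_fixedPoints_modEq hf
  have h2 : Fintype.card (Function.fixedPoints f) ≠ 1 := by
    intro h
    rw [h, ← Nat.card_eq_fintype_card] at h1
    have hpos : 1 ≤ Nat.card S := Nat.card_pos
    exact hnd ((Nat.modEq_iff_dvd' hpos).1 h1.symm)
  have h3 : (⟨1, by show f 1 = 1; apply Subtype.ext; simp [f]⟩ : Function.fixedPoints f) ∈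
      (Finset.univ : Finset (Function.fixedPoints f)) := Finset.mem_univ _
  obtain ⟨y, hy⟩ : ∃ y : Function.fixedPoints f, y ≠ ⟨1, by show f 1 = 1; apply Subtype.ext; simp [f]⟩ := by
    by_contra hcon
    push Not at hcon
    apply h2
    rw [Fintype.card_eq_one_iff]
    exact ⟨_, hcon⟩
  have hy1 : (y.1 : G) ≠ 1 := by
    intro h
    apply hy
    apply Subtype.ext
    apply Subtype.ext
    exact h
  have hy2 : x * (y.1 : G) * x⁻¹ = y.1 := congrArg Subtype.val y.2
  have hcomm : Commute x (y.1 : G) := by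
    exact mul_inv_eq_iff_eq_mul.1 hy2
  obtain ⟨k, hk⟩ := hS y.1
  have hk' : (y.1 : G) ^ s ^ k = 1 := by
    have := congrArg Subtype.val hk
    simpa using this
  obtain ⟨j, hj, hj2⟩ := (Nat.dvd_prime_pow hs).1 (orderOf_dvd_of_pow_eq_one hk')
  have hj0 : j ≠ 0 := by
    rintro rfl
    rw [pow_zero, orderOf_eq_one_iff] at hj2
    exact hy1 hj2
  refine ⟨(y.1 : G) ^ s ^ (j - 1), S.pow_mem y.1.2 _, ?_, hcomm.pow_right _⟩
  rw [orderOf_pow_of_dvd (pow_ne_zero _ hs.ne_zero) (by rw [hj2]; exact pow_dvd_pow _ (by omega)), hj2]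
  have : s ^ j = s ^ (j - 1) * s := by
    rw [← pow_succ]; congr 1; omega
  rw [this, Nat.mul_div_cancel_left _ (pow_pos hs.pos _)]

/-- Frattini-type lemma producing elements of order `s * t`. -/
theorem exists_orderOf_mul {G : Type*} [Group G] [Finite G] (M : Subgroup G) [M.Normal]
    {s t : ℕ} (hs : s.Prime) (ht : t.Prime) (hst : s ≠ t) (hsM : s ∣ Nat.card M)
    (htG : t ∣ Nat.card G) (htM : ¬ t ∣ Nat.card M)
    (hnd : ∀ a : ℕ, 1 ≤ a → s ^ a ∣ Nat.card M → ¬ t ∣ s ^ a - 1) :
    ∃ g : G, orderOf g = s * t := by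
  classical
  haveI := Fact.mk hs
  haveI := Fact.mk ht
  obtain ⟨P⟩ : Nonempty (Sylow s M) := inferInstance
  have hfr := Sylow.normalizer_sup_eq_top P
  obtain ⟨S, hSdef⟩ : ∃ S : Subgroup G, S = (P : Subgroup M).map M.subtype := ⟨_, rfl⟩
  rw [← hSdef] at hfr
  have hScard : Nat.card S = Nat.card (P : Subgroup M) := by
    rw [hSdef]
    exact Subgroup.card_map_of_injective M.subtype_injective
  have hSp : IsPGroup s S := by
    rw [hSdef]
    exact P.2.map _
  -- t divides the order of the normalizer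
  have hsurj : Function.Surjective
      ((QuotientGroup.mk' M).comp (Subgroup.normalizer (S : Set G)).subtype) := by
    intro q
    obtain ⟨g, rfl⟩ := QuotientGroup.mk'_surjective M q
    have hg : g ∈ Subgroup.normalizer (S : Set G) ⊔ M := by rw [hfr]; trivial
    rw [Subgroup.mem_sup_of_normal_right] at hg
    obtain ⟨a, ha, b, hb, rfl⟩ := hg
    refine ⟨⟨a, ha⟩, ?_⟩
    show (QuotientGroup.mk' M) a = (QuotientGroup.mk' M) (a * b)
    have hb1 : (QuotientGroup.mk' M) b = 1 := (QuotientGroup.eq_one_iff b).2 hb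
    rw [map_mul, hb1, mul_one]
  have h1 : Nat.card (G ⧸ M) ∣ Nat.card (Subgroup.normalizer (S : Set G)) :=
    Subgroup.card_dvd_of_surjective _ hsurj
  have h2 : t ∣ Nat.card (G ⧸ M) := by
    have h3 := Subgroup.card_eq_card_quotient_mul_card_subgroup M
    rw [h3] at htG
    exact (ht.dvd_mul.1 htG).resolve_right htM
  obtain ⟨x, hx⟩ := exists_prime_orderOf_dvd_card' t (h2.trans h1)
  have hx' : orderOf (x : G) = t := by rw [Subgroup.orderOf_coe, hx]
  obtain ⟨a, ha⟩ := IsPGroup.iff_card.1 hSp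
  have ha1 : 1 ≤ a := by
    by_contra hcon
    have ha0 : a = 0 := by omega
    rw [ha0, pow_zero, hScard] at ha
    have h4 := P.card_eq_multiplicity
    rw [ha] at h4
    have h5 : 0 < (Nat.card M).factorization s :=
      hs.factorization_pos_of_dvd Nat.card_pos.ne' hsM
    have h6 : 1 < s ^ (Nat.card M).factorization s := Nat.one_lt_pow h5.ne' hs.one_lt
    omega
  have ha2 : s ^ a ∣ Nat.card M := by
    rw [← ha, hScard]
    exact Subgroup.card_subgroup_dvd_card _
  obtain ⟨z, _, hz, hc⟩ := exists_commute_of_normalizes S hs ht hSp x hx'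
    (fun y hy => (Subgroup.mem_normalizer_iff.1 x.2 y).1 hy) (by rw [ha]; exact hnd a ha1 ha2)
  refine ⟨z * x, ?_⟩
  rw [hc.symm.orderOf_mul_eq_mul_orderOf_of_coprime (by
    rw [hz, hx']; exact (Nat.coprime_primes hs ht).2 hst), hz, hx']

theorem card_eq_mul_section {G : Type*} [Group G] (N H : Subgroup G) (hNH : N ≤ H) :
    Nat.card H = Nat.card (↥H ⧸ N.subgroupOf H) * Nat.card N := by
  rw [Subgroup.card_eq_card_quotient_mul_card_subgroup (N.subgroupOf H)]
  congr 1
  exact Nat.card_congr (Subgroup.subgroupOfEquivOfLe hNH).toEquiv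

/-- A prime dividing the order exactly once lives in a simple section. -/
theorem exists_simple_section {G : Type*} [Group G] [Finite G] {p : ℕ} (hp : p.Prime)
    (hpG : p ∣ Nat.card G) (hp2 : ¬ p ^ 2 ∣ Nat.card G) :
    ∃ (N H : Subgroup G) (_ : N.Normal), H.Normal ∧ N < H ∧
      IsSimpleGroup (↥H ⧸ N.subgroupOf H) ∧ p ∣ Nat.card (↥H ⧸ N.subgroupOf H) ∧
      ¬ p ∣ Nat.card N := by
  classical
  obtain ⟨N, ⟨hNn, hNp⟩, hmax⟩ := WellFounded.has_min
    (wellFounded_gt : WellFounded ((· > ·) : Subgroup G → Subgroup G → Prop))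
    {N : Subgroup G | N.Normal ∧ ¬ p ∣ Nat.card N}
    ⟨⊥, inferInstance, by rw [Subgroup.card_bot]; exact hp.one_lt.ne' ∘ Nat.dvd_one.1⟩
  haveI := hNn
  have hNtop : N ≠ ⊤ := by
    rintro rfl
    rw [Subgroup.card_top] at hNp
    exact hNp hpG
  haveI : Nontrivial (G ⧸ N) := QuotientGroup.nontrivial_iff.2 hNtop
  obtain ⟨L, hLn, hL0, -, hLmin⟩ := Cfsg.Agent.H4.exists_minimal_normal_le
    (D := (⊤ : Subgroup (G ⧸ N))) inferInstance top_ne_bot
  haveI := hLn
  obtain ⟨H, hH⟩ : ∃ H : Subgroup G, H = L.comap (QuotientGroup.mk' N) := ⟨_, rfl⟩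
  have hHn : H.Normal := by rw [hH]; infer_instance
  have hNH : N ≤ H := by
    rw [hH]
    intro x hx
    rw [Subgroup.mem_comap]
    have : (QuotientGroup.mk' N) x = 1 := (QuotientGroup.eq_one_iff x).2 hx
    rw [this]; exact L.one_mem
  have hne : N ≠ H := by
    intro h
    apply hL0
    rw [eq_bot_iff]
    intro q hq
    obtain ⟨g, rfl⟩ := QuotientGroup.mk'_surjective N q
    have hg : g ∈ H := by rw [hH]; exact hq
    rw [← h] at hg
    exact Subgroup.mem_bot.2 ((QuotientGroup.eq_one_iff g).2 hg)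
  have hlt : N < H := lt_of_le_of_ne hNH hne
  -- the isomorphism
  subst hH
  let f : ↥(L.comap (QuotientGroup.mk' N)) →* L := (QuotientGroup.mk' N).subgroupComap L
  have hfs : Function.Surjective f :=
    MonoidHom.subgroupComap_surjective_of_surjective _ _ (QuotientGroup.mk'_surjective N)
  have hker : N.subgroupOf (L.comap (QuotientGroup.mk' N)) = f.ker := by
    ext x
    rw [Subgroup.mem_subgroupOf, MonoidHom.mem_ker]
    constructor
    · intro hx
      apply Subtype.ext
      exact (QuotientGroup.eq_one_iff (x : G)).2 hx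
    · intro hx
      exact (QuotientGroup.eq_one_iff (x : G)).1 (congrArg Subtype.val hx)
  let φ : (↥(L.comap (QuotientGroup.mk' N)) ⧸ N.subgroupOf (L.comap (QuotientGroup.mk' N))) ≃* L :=
    (QuotientGroup.quotientMulEquivOfEq hker).trans (QuotientGroup.quotientKerEquivOfSurjective f hfs)
  have hpH : p ∣ Nat.card ↥(L.comap (QuotientGroup.mk' N)) := by
    by_contra hcon
    exact hmax _ ⟨hHn, hcon⟩ hlt
  have hpq : p ∣ Nat.card (↥(L.comap (QuotientGroup.mk' N)) ⧸
      N.subgroupOf (L.comap (QuotientGroup.mk' N))) := by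
    rw [card_eq_mul_section N _ hNH] at hpH
    exact (hp.dvd_mul.1 hpH).resolve_right hNp
  have hpL : p ∣ Nat.card L := by
    rwa [Nat.card_congr φ.toEquiv] at hpq
  obtain ⟨T, _, m, hT, hm, ⟨ψ⟩⟩ := Cfsg.Agent.S0721.result L hL0 hLmin
  have hcardL : Nat.card L = Nat.card T ^ m := by
    rw [Nat.card_congr ψ.toEquiv, Nat.card_fun]
    simp
  have hpT : p ∣ Nat.card T := by
    rw [hcardL] at hpL
    exact hp.dvd_of_dvd_pow hpL
  have hm1 : m = 1 := by
    by_contra hcon
    have hm2 : 2 ≤ m := by omega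
    apply hp2
    calc p ^ 2 ∣ Nat.card T ^ 2 := pow_dvd_pow_of_dvd hpT 2
      _ ∣ Nat.card T ^ m := pow_dvd_pow _ hm2
      _ = Nat.card L := hcardL.symm
      _ ∣ Nat.card (G ⧸ N) := Subgroup.card_subgroup_dvd_card L
      _ ∣ Nat.card G := Subgroup.card_quotient_dvd_card N
  subst hm1
  refine ⟨N, _, hNn, hHn, hlt, ?_, hpq, hNp⟩
  exact (φ.trans (ψ.trans (MulEquiv.funUnique (Fin 1) T))).isSimpleGroup

/-- another prime must divide the order of the simple section. -/
theorem dvd_section {G : Type*} [Group G] [Finite G] {p r : ℕ} (hp : p.Prime) (hr : r.Prime)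
    (hpr : p ≠ r) (hpG : p ∣ Nat.card G) (hp2 : ¬ p ^ 2 ∣ Nat.card G) (hrG : r ∣ Nat.card G)
    (hno : ∀ g : G, orderOf g ≠ p * r) (h1 : ¬ r ∣ p - 1)
    (h2 : ∀ a : ℕ, 1 ≤ a → r ^ a ∣ Nat.card G → ¬ p ∣ r ^ a - 1)
    (N H : Subgroup G) (hN : N.Normal) (hH : H.Normal) (hNH : N ≤ H)
    (hpq : p ∣ Nat.card (↥H ⧸ N.subgroupOf H)) (hpN : ¬ p ∣ Nat.card N) :
    r ∣ Nat.card (↥H ⧸ N.subgroupOf H) := by
  by_contra hcon
  by_cases hrN : r ∣ Nat.card N
  · obtain ⟨g, hg⟩ := exists_orderOf_mul N hr hp hpr.symm hrN hpG hpN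
      (fun a ha hd => h2 a ha (hd.trans (Subgroup.card_subgroup_dvd_card N)))
    exact hno g (by rw [hg, mul_comm])
  · have hc := card_eq_mul_section N H hNH
    have hrH : ¬ r ∣ Nat.card H := by
      rw [hc]
      intro h
      rcases hr.dvd_mul.1 h with h | h
      · exact hcon h
      · exact hrN h
    have hpH : p ∣ Nat.card H := by
      rw [hc]; exact Dvd.dvd.mul_right hpq _
    obtain ⟨g, hg⟩ := exists_orderOf_mul H hp hr hpr hpH hrG hrH (by
      intro a ha hd
      have ha1 : a = 1 := by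
        by_contra hne
        apply hp2
        exact (pow_dvd_pow p (by omega)).trans (hd.trans (Subgroup.card_subgroup_dvd_card H))
      rw [ha1, pow_one]
      exact h1)
    exact hno g hg

end Cfsg.Agent.Lib.Helper19.SS
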