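import Mathlib

namespace Cfsg.Agent.Lib.Helper19.TP

section Real

open Real

theorem real_main_inequality {x : ℝ} (x_large : (512 : ℝ) ≤ x) :
    x * (2 * x) * (2 * x) ^ √(2 * x) * 4 ^ (2 * x / 3) ≤ 4 ^ x := by
  let f : ℝ → ℝ := fun x => log x + log (2 * x) + √(2 * x) * log (2 * x) - log 4 / 3 * x
  have hf' : ∀ x, 0 < x → 0 < x * (2 * x) * (2 * x) ^ √(2 * x) / 4 ^ (x / 3) := fun x h =>
    div_pos (mul_pos (mul_pos h (mul_pos two_pos h)) (rpow_pos_of_pos (mul_pos two_pos h) _))
      (rpow_pos_of_pos four_pos _)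
  have hf : ∀ x, 0 < x → f x = log (x * (2 * x) * (2 * x) ^ √(2 * x) / 4 ^ (x / 3)) := by
    intro x h5
    have h6 := mul_pos (zero_lt_two' ℝ) h5
    have h7 := rpow_pos_of_pos h6 (√(2 * x))
    rw [log_div (mul_pos (mul_pos h5 h6) h7).ne' (rpow_pos_of_pos four_pos _).ne',
      log_mul (mul_pos h5 h6).ne' h7.ne', log_mul h5.ne' h6.ne',
      log_rpow h6, log_rpow zero_lt_four, ← mul_div_right_comm, ← mul_div, mul_comm x]
  have h5 : 0 < x := lt_of_lt_of_le (by norm_num1) x_large
  rw [← div_le_one (rpow_pos_of_pos four_pos x), ← div_div_eq_mul_div, ← rpow_sub four_pos, ←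
    mul_div 2 x, mul_div_left_comm, ← mul_one_sub, (by norm_num1 : (1 : ℝ) - 2 / 3 = 1 / 3),
    mul_one_div, ← log_nonpos_iff (hf' x h5).le, ← hf x h5]
  have h : ConcaveOn ℝ (Set.Ioi 0.5) f := by
    apply ConcaveOn.sub
    · apply ConcaveOn.add
      · apply ConcaveOn.add
        · exact strictConcaveOn_log_Ioi.concaveOn.subset
            (Set.Ioi_subset_Ioi (by norm_num)) (convex_Ioi 0.5)
        · have h1 := (strictConcaveOn_log_Ioi.concaveOn.comp_linearMap ((2 : ℝ) • LinearMap.id))
          refine h1.subset ?_ (convex_Ioi 0.5)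
          intro x hx
          simp only [Set.mem_Ioi, Set.mem_preimage, LinearMap.smul_apply,
            LinearMap.id_coe, id_eq, smul_eq_mul] at hx ⊢
          linarith
      convert!
        ((strictConcaveOn_sqrt_mul_log_Ioi.concaveOn.comp_linearMap ((2 : ℝ) • LinearMap.id)))
        using 1
      ext x
      simp only [Set.mem_Ioi, Set.mem_preimage, LinearMap.smul_apply,
        LinearMap.id_coe, id_eq, smul_eq_mul]
      rw [← mul_lt_mul_iff_right₀ (two_pos)]
      norm_num1
      rfl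
    apply ConvexOn.smul
    · refine div_nonneg (log_nonneg (by norm_num1)) (by norm_num1)
    · exact convexOn_id (convex_Ioi (0.5 : ℝ))
  suffices ∃ x1 x2, 0.5 < x1 ∧ x1 < x2 ∧ x2 ≤ x ∧ 0 ≤ f x1 ∧ f x2 ≤ 0 by
    obtain ⟨x1, x2, h1, h2, h0, h3, h4⟩ := this
    exact (h.right_le_of_le_left'' h1 ((h1.trans h2).trans_le h0) h2 h0 (h4.trans h3)).trans h4
  refine ⟨18, 512, by norm_num1, by norm_num1, x_large, ?_, ?_⟩
  · have : √(2 * 18 : ℝ) = 6 := (sqrt_eq_iff_mul_self_eq_of_pos (by norm_num1)).mpr (by norm_num1)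
    rw [hf _ (by norm_num1), log_nonneg_iff (by positivity), this, one_le_div (by norm_num1)]
    norm_num1
  · have : √(2 * 512) = 32 :=
      (sqrt_eq_iff_mul_self_eq_of_pos (by norm_num1)).mpr (by norm_num1)
    rw [hf _ (by norm_num1), log_nonpos_iff (hf' _ (by norm_num1)).le, this,
        div_le_one (by positivity)]
    have e1 : (512 : ℝ) * (2 * 512) * (2 * 512) ^ (32 : ℝ) = 2 ^ (339 : ℝ) := by
      have : ((2 : ℝ) * 512) ^ (32 : ℝ) = (2 * 512) ^ (32 : ℕ) := by
        rw [← rpow_natCast]; norm_num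
      rw [this]
      have : (2 : ℝ) ^ (339 : ℝ) = 2 ^ (339 : ℕ) := by
        rw [← rpow_natCast]; norm_num
      rw [this]
      have a2 : (2 * 512 : ℝ) = 2 ^ 10 := by norm_num
      have a1 : (512 : ℝ) = 2 ^ 9 := by norm_num
      rw [a2, a1, ← pow_mul, ← pow_add, ← pow_add]
    have e2 : (4 : ℝ) ^ ((512 : ℝ) / 3) = 2 ^ ((1024 : ℝ) / 3) := by
      have : (4 : ℝ) = 2 ^ (2 : ℝ) := by rw [rpow_two]; norm_num1
      rw [this, ← rpow_mul (by norm_num)]
      norm_num
    rw [e1, e2]
    apply rpow_le_rpow_of_exponent_le <;> norm_num1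

end Real

section NatPart

open Nat

theorem main_inequality {n : ℕ} (n_large : 512 ≤ n) :
    n * (2 * n) * (2 * n) ^ sqrt (2 * n) * 4 ^ (2 * n / 3) ≤ 4 ^ n := by
  rw [← @cast_le ℝ]
  simp only [cast_mul, cast_pow, ← Real.rpow_natCast, cast_ofNat]
  refine _root_.trans ?_ (real_main_inequality (by exact_mod_cast n_large))
  gcongr
  · have n2_pos : 0 < 2 * n := by positivity
    exact mod_cast n2_pos
  · exact_mod_cast Real.nat_sqrt_le_real_sqrt
  · norm_num1
  · exact cast_div_le.trans (by norm_cast)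

theorem prod_small_le (n : ℕ) (n_pos : 0 < n) :
    ∏ p ∈ Finset.range (2 * n / 3 + 1), p ^ (centralBinom n).factorization p
      ≤ (2 * n) ^ sqrt (2 * n) * 4 ^ (2 * n / 3) := by
  have n2_pos : 1 ≤ 2 * n := mul_pos (zero_lt_two' ℕ) n_pos
  let S := {p ∈ Finset.range (2 * n / 3 + 1) | Nat.Prime p}
  let f x := x ^ n.centralBinom.factorization x
  have : ∏ x ∈ S, f x = ∏ x ∈ Finset.range (2 * n / 3 + 1), f x := by
    refine Finset.prod_filter_of_ne fun p _ h => ?_
    contrapose h; dsimp only [f]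
    rw [factorization_eq_zero_of_not_prime n.centralBinom h, _root_.pow_zero]
  rw [← this, ← Finset.prod_filter_mul_prod_filter_not S (· ≤ sqrt (2 * n))]
  apply mul_le_mul'
  · refine (Finset.prod_le_prod' fun p _ => (?_ : f p ≤ 2 * n)).trans ?_
    · exact pow_factorization_choose_le (mul_pos two_pos n_pos)
    have : (Finset.Icc 1 (sqrt (2 * n))).card = sqrt (2 * n) := by rw [card_Icc, Nat.add_sub_cancel]
    rw [Finset.prod_const]
    refine pow_right_mono₀ n2_pos ((Finset.card_le_card fun x hx => ?_).trans this.le)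
    obtain ⟨h1, h2⟩ := Finset.mem_filter.1 hx
    exact Finset.mem_Icc.mpr ⟨(Finset.mem_filter.1 h1).2.one_lt.le, h2⟩
  · refine le_trans ?_ (primorial_le_four_pow (2 * n / 3))
    refine (Finset.prod_le_prod' fun p hp => (?_ : f p ≤ p)).trans ?_
    · obtain ⟨h1, h2⟩ := Finset.mem_filter.1 hp
      refine (pow_right_mono₀ (Finset.mem_filter.1 h1).2.one_lt.le ?_).trans (pow_one p).le
      exact Nat.factorization_choose_le_one (sqrt_lt'.mp <| not_le.1 h2)
    refine Finset.prod_le_prod_of_subset_of_one_le' (Finset.filter_subset _ _) ?_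
    exact fun p hp _ => (Finset.mem_filter.1 hp).2.one_lt.le

theorem centralBinom_le_of_one_prime (n : ℕ) (n_large : 2 < n) (q : ℕ) (hq1 : n < q)
    (hq2 : q ≤ 2 * n)
    (one_prime : ∀ p : ℕ, p.Prime → n < p → p ≤ 2 * n → p = q) :
    centralBinom n ≤ (2 * n) * ((2 * n) ^ sqrt (2 * n) * 4 ^ (2 * n / 3)) := by
  have n_pos : 0 < n := by omega
  have h1 : centralBinom n = ∏ p ∈ insert q (Finset.range (2 * n / 3 + 1)),
      p ^ (centralBinom n).factorization p := by
    refine (Eq.trans ?_ n.prod_pow_factorization_centralBinom).symm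
    apply Finset.prod_subset
    · intro x hx
      rw [Finset.mem_insert, Finset.mem_range] at hx
      rw [Finset.mem_range]
      omega
    intro x hx h2x
    rw [Finset.mem_range, Nat.lt_succ_iff] at hx
    rw [Finset.mem_insert, Finset.mem_range, Nat.lt_succ_iff, not_or] at h2x
    obtain ⟨hxq, h2x⟩ := h2x
    rw [not_le, div_lt_iff_lt_mul three_pos, mul_comm x] at h2x
    by_cases hp : x.Prime
    · have h : x ≤ n := by
        by_contra hcon
        exact hxq (one_prime x hp (by omega) hx)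
      rw [factorization_centralBinom_of_two_mul_self_lt_three_mul n_large h h2x, Nat.pow_zero]
    · rw [factorization_eq_zero_of_not_prime n.centralBinom hp, Nat.pow_zero]
  rw [h1, Finset.prod_insert (by rw [Finset.mem_range]; omega)]
  exact Nat.mul_le_mul (pow_factorization_choose_le (mul_pos two_pos n_pos)) (prod_small_le n n_pos)

theorem two_primes_eventually (n : ℕ) (n_large : 512 ≤ n) :
    ∃ p q : ℕ, p.Prime ∧ q.Prime ∧ n < q ∧ q < p ∧ p ≤ 2 * n := by
  obtain ⟨q, hq, hq1, hq2⟩ := Nat.exists_prime_lt_and_le_two_mul n (by omega)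
  by_contra hcon
  have one_prime : ∀ p : ℕ, p.Prime → n < p → p ≤ 2 * n → p = q := by
    intro p hp h1 h2
    by_contra hne
    rcases lt_or_gt_of_ne hne with h | h
    · exact hcon ⟨q, p, hq, hp, h1, h, hq2⟩
    · exact hcon ⟨p, q, hp, hq, hq1, h, h2⟩
  have h1 : 4 ^ n < n * n.centralBinom :=
    Nat.four_pow_lt_mul_centralBinom n (le_trans (by norm_num1) n_large)
  have h2 := centralBinom_le_of_one_prime n (by omega) q hq1 hq2 one_prime
  have h3 := main_inequality n_large
  have h4 : n * n.centralBinom ≤ n * (2 * n) * (2 * n) ^ sqrt (2 * n) * 4 ^ (2 * n / 3) := by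
    calc n * n.centralBinom ≤ n * ((2 * n) * ((2 * n) ^ sqrt (2 * n) * 4 ^ (2 * n / 3))) :=
          Nat.mul_le_mul_left _ h2
      _ = _ := by ring
  omega

theorem two_primes_step {n : ℕ} (a b c : ℕ) (hb : b.Prime) (hc : c.Prime) (hbc : b < c)
    (hca : c ≤ 2 * a) (H : n < a → ∃ p q : ℕ, p.Prime ∧ q.Prime ∧ n < q ∧ q < p ∧ p ≤ 2 * n)
    (hn : n < b) : ∃ p q : ℕ, p.Prime ∧ q.Prime ∧ n < q ∧ q < p ∧ p ≤ 2 * n := by
  by_cases h : n < a
  · exact H h
  · exact ⟨c, b, hc, hb, hn, hbc, by omega⟩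

/-- two primes in `(n, 2n]` for `n ≥ 6` -/
theorem two_primes (n : ℕ) (hn : 6 ≤ n) :
    ∃ p q : ℕ, p.Prime ∧ q.Prime ∧ n < q ∧ q < p ∧ p ≤ 2 * n := by
  rcases lt_or_ge 511 n with h | h
  · exact two_primes_eventually n h
  replace h : n < 547 := by omega
  revert h
  refine two_primes_step 317 547 631 (by norm_num1) (by norm_num1) (by norm_num1) (by norm_num1) ?_
  refine two_primes_step 277 317 547 (by norm_num1) (by norm_num1) (by norm_num1) (by norm_num1) ?_
  refine two_primes_step 163 277 317 (by norm_num1) (by norm_num1) (by norm_num1) (by norm_num1) ?_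
  refine two_primes_step 139 163 277 (by norm_num1) (by norm_num1) (by norm_num1) (by norm_num1) ?_
  refine two_primes_step 83 139 163 (by norm_num1) (by norm_num1) (by norm_num1) (by norm_num1) ?_
  refine two_primes_step 73 83 139 (by norm_num1) (by norm_num1) (by norm_num1) (by norm_num1) ?_
  refine two_primes_step 43 73 83 (by norm_num1) (by norm_num1) (by norm_num1) (by norm_num1) ?_
  refine two_primes_step 37 43 73 (by norm_num1) (by norm_num1) (by norm_num1) (by norm_num1) ?_
  refine two_primes_step 23 37 43 (by norm_num1) (by norm_num1) (by norm_num1) (by norm_num1) ?_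
  refine two_primes_step 19 23 37 (by norm_num1) (by norm_num1) (by norm_num1) (by norm_num1) ?_
  refine two_primes_step 13 19 23 (by norm_num1) (by norm_num1) (by norm_num1) (by norm_num1) ?_
  refine two_primes_step 11 13 19 (by norm_num1) (by norm_num1) (by norm_num1) (by norm_num1) ?_
  refine two_primes_step 7 11 13 (by norm_num1) (by norm_num1) (by norm_num1) (by norm_num1) ?_
  intro h
  exact ⟨11, 7, by norm_num1, by norm_num1, h, by norm_num1, by omega⟩

end NatPart

end Cfsg.Agent.Lib.Helper19.TP
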