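import Mathlib
import Cfsg.Agent.Lib.Helper19.TwoPrimes
import Cfsg.Agent.Lib.Helper19.SimpleSection
import Cfsg.Agent.Lib.Helper19.AltFacts

namespace Cfsg.Agent.Lib.Helper19.AS

theorem two_primes_half (n : ℕ) (hn : 11 ≤ n) :
    ∃ p q : ℕ, p.Prime ∧ q.Prime ∧ q < p ∧ p ≤ n ∧ n < 2 * q := by
  by_cases h : n = 11
  · subst h
    exact ⟨11, 7, by norm_num, by norm_num, by norm_num, by norm_num, by norm_num⟩
  · obtain ⟨p, q, hp, hq, h1, h2, h3⟩ := TP.two_primes (n / 2) (by omega)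
    exact ⟨p, q, hp, hq, h2, by omega, by omega⟩

theorem no_order {G : Type*} [Group G] (n : ℕ)
    (hspec : Set.range (orderOf : G → ℕ) = Set.range (orderOf : ↥(alternatingGroup (Fin n)) → ℕ))
    {p r : ℕ} (hp : p.Prime) (hr : r.Prime) (hpr : p ≠ r) (hsum : n < p + r) (g : G) :
    orderOf g ≠ p * r := by
  intro h
  have h1 : orderOf g ∈ Set.range (orderOf : ↥(alternatingGroup (Fin n)) → ℕ) := by
    rw [← hspec]; exact ⟨g, rfl⟩
  obtain ⟨σ, hσ⟩ := h1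
  rw [← Subgroup.orderOf_coe, h] at hσ
  exact AF.orderOf_ne_mul hp hr hpr hsum _ hσ

/-- the section containing `p` also contains `r`. -/
theorem core {G : Type*} [Group G] [Finite G] (n : ℕ)
    (hcard : Nat.card G = Nat.card ↥(alternatingGroup (Fin n)))
    (hspec : Set.range (orderOf : G → ℕ) = Set.range (orderOf : ↥(alternatingGroup (Fin n)) → ℕ))
    {p r : ℕ} (hp : p.Prime) (hr : r.Prime) (hpr : p ≠ r) (hp2 : 2 < p) (hpn : p ≤ n)
    (hnp : n < 2 * p) (hr2 : 2 < r) (hrn : r ≤ n) (hsum : n < p + r) (h1 : ¬ r ∣ p - 1)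
    (h2 : ∀ a : ℕ, 1 ≤ a → r ^ a ∣ Nat.card G → ¬ p ∣ r ^ a - 1)
    (N H : Subgroup G) (hN : N.Normal) (hH : H.Normal) (hNH : N ≤ H)
    (hpq : p ∣ Nat.card (↥H ⧸ N.subgroupOf H)) (hpN : ¬ p ∣ Nat.card N) :
    r ∣ Nat.card (↥H ⧸ N.subgroupOf H) :=
  SS.dvd_section hp hr hpr (by rw [hcard]; exact AF.prime_dvd_card_alt hp hp2 hpn)
    (by rw [hcard]; exact AF.sq_not_dvd_card_alt hp hnp (by omega))
    (by rw [hcard]; exact AF.prime_dvd_card_alt hr hr2 hrn)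
    (no_order n hspec hp hr hpr hsum) h1 h2 N H hN hH hNH hpq hpN

theorem section_of_pair {G : Type*} [Group G] [Finite G] (n : ℕ)
    (hcard : Nat.card G = Nat.card ↥(alternatingGroup (Fin n)))
    (hspec : Set.range (orderOf : G → ℕ) = Set.range (orderOf : ↥(alternatingGroup (Fin n)) → ℕ))
    {p r : ℕ} (hp : p.Prime) (hr : r.Prime) (hpr : p ≠ r) (hp2 : 2 < p) (hpn : p ≤ n)
    (hnp : n < 2 * p) (hr2 : 2 < r) (hrn : r ≤ n) (hsum : n < p + r) (h1 : ¬ r ∣ p - 1)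
    (h2 : ∀ a : ℕ, 1 ≤ a → r ^ a ∣ Nat.card G → ¬ p ∣ r ^ a - 1) :
    ∃ (N H : Subgroup G) (_ : N.Normal), H.Normal ∧ N < H ∧
      IsSimpleGroup (↥H ⧸ N.subgroupOf H) ∧ ¬ IsMulCommutative (↥H ⧸ N.subgroupOf H) ∧
      p ∣ Nat.card (↥H ⧸ N.subgroupOf H) ∧ ¬ p ∣ Nat.card N := by
  obtain ⟨N, H, hN, hH, hlt, hsimp, hpq, hpN⟩ := SS.exists_simple_section (G := G) hp
    (by rw [hcard]; exact AF.prime_dvd_card_alt hp hp2 hpn)
    (by rw [hcard]; exact AF.sq_not_dvd_card_alt hp hnp (by omega))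
  refine ⟨N, H, hN, hH, hlt, hsimp, ?_, hpq, hpN⟩
  intro hc
  have hprime := Group.is_simple_iff_prime_card.1 hsimp
  have hrq := core n hcard hspec hp hr hpr hp2 hpn hnp hr2 hrn hsum h1 h2 N H hN hH hlt.le hpq hpN
  have e1 := (Nat.prime_dvd_prime_iff_eq hp hprime).1 hpq
  have e2 := (Nat.prime_dvd_prime_iff_eq hr hprime).1 hrq
  exact hpr (e1.trans e2.symm)

theorem not_solvable_of_pair {G : Type*} [Group G] [Finite G] (n : ℕ)
    (hcard : Nat.card G = Nat.card ↥(alternatingGroup (Fin n)))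
    (hspec : Set.range (orderOf : G → ℕ) = Set.range (orderOf : ↥(alternatingGroup (Fin n)) → ℕ))
    {p r : ℕ} (hp : p.Prime) (hr : r.Prime) (hpr : p ≠ r) (hp2 : 2 < p) (hpn : p ≤ n)
    (hnp : n < 2 * p) (hr2 : 2 < r) (hrn : r ≤ n) (hsum : n < p + r) (h1 : ¬ r ∣ p - 1)
    (h2 : ∀ a : ℕ, 1 ≤ a → r ^ a ∣ Nat.card G → ¬ p ∣ r ^ a - 1) :
    ¬ Group.IsSolvable G := by
  intro hsol
  obtain ⟨N, H, hN, hH, hlt, hsimp, hnc, -, -⟩ :=
    section_of_pair n hcard hspec hp hr hpr hp2 hpn hnp hr2 hrn hsum h1 h2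
  apply hnc
  have hs : Group.IsSolvable (↥H ⧸ N.subgroupOf H) := inferInstance
  exact ⟨⟨IsSimpleGroup.comm_iff_isSolvable.2 hs⟩⟩

/-- the hypotheses `h1`, `h2` for two primes in `(n/2, n]`. -/
theorem h2_of_half {G : Type*} [Group G] (n : ℕ)
    (hcard : Nat.card G = Nat.card ↥(alternatingGroup (Fin n)))
    {p r : ℕ} (hp : p.Prime) (hr : r.Prime) (hpr : p ≠ r) (hp2 : 2 < p) (hnp : n < 2 * p)
    (hr2 : 2 < r) (hrn : r ≤ n) (hnr : n < 2 * r) :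
    ∀ a : ℕ, 1 ≤ a → r ^ a ∣ Nat.card G → ¬ p ∣ r ^ a - 1 := by
  intro a ha hd
  have ha1 : a = 1 := by
    by_contra hne
    apply AF.sq_not_dvd_card_alt hr hnr (by omega)
    rw [← hcard]
    exact (pow_dvd_pow r (by omega)).trans hd
  rw [ha1, pow_one]
  exact AF.not_dvd_sub_one hp hr hpr hp2 hr2 hnp hrn

end Cfsg.Agent.Lib.Helper19.AS
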