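import Mathlib
import Cfsg.Agent.S2388

set_option autoImplicit false

namespace Cfsg.Agent.Lib.Helper19

open Polynomial

/-- every monic polynomial of degree `n` is a characteristic polynomial -/
theorem exists_matrix_charpoly {F : Type*} [Field F] {n : ℕ} (χ : F[X]) (hχ : χ.Monic)
    (hn : χ.natDegree = n) : ∃ M : Matrix (Fin n) (Fin n) F, M.charpoly = χ := by
  subst hn
  exact ⟨Algebra.leftMulMatrix (AdjoinRoot.powerBasis hχ.ne_zero).basis
    (AdjoinRoot.powerBasis hχ.ne_zero).gen,
    (charpoly_leftMulMatrix (AdjoinRoot.powerBasis hχ.ne_zero)).trans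
      (AdjoinRoot.minpoly_powerBasis_gen_of_monic hχ)⟩

theorem charpoly_pow_card_pow {F : Type*} [Field F] [Fintype F] {n : ℕ} (M : Matrix (Fin n) (Fin n) F)
    (j : ℕ) : (M ^ (Fintype.card F ^ j)).charpoly = M.charpoly := by
  induction j with
  | zero => rw [pow_zero, pow_one]
  | succ j ih => rw [pow_succ, pow_mul, FiniteField.Matrix.charpoly_pow_card, ih]

/-- in a finite group a suitable `q^j`-th power is a `p'`-element (`q` a positive power of `p`) -/
theorem exists_pow_coprime {G : Type*} [Group G] [Finite G] (p q : ℕ) (hp : p.Prime) (hq : p ∣ q)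
    (g : G) : ∃ j : ℕ, (orderOf (g ^ (q ^ j))).Coprime p := by
  have ho : 0 < orderOf g := orderOf_pos g
  refine ⟨(orderOf g).factorization p, ?_⟩
  rw [orderOf_pow, Nat.coprime_comm, Nat.Prime.coprime_iff_not_dvd hp]
  intro hdvd
  obtain ⟨a, ha⟩ : ∃ a, a = (orderOf g).factorization p := ⟨_, rfl⟩
  rw [← ha] at hdvd
  have h1 : p ^ a ∣ orderOf g := by rw [ha]; exact Nat.ordProj_dvd _ _
  have h2 : p ^ a ∣ q ^ a := pow_dvd_pow_of_dvd hq a
  have h3 : p ^ a ∣ Nat.gcd (orderOf g) (q ^ a) := Nat.dvd_gcd h1 h2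
  have h4 : Nat.gcd (orderOf g) (q ^ a) ∣ orderOf g := Nat.gcd_dvd_left _ _
  have h5 : p * Nat.gcd (orderOf g) (q ^ a) ∣ orderOf g := by
    obtain ⟨c, hc⟩ := hdvd
    have h6 := Nat.div_mul_cancel h4
    rw [hc] at h6
    exact ⟨c, by
      calc orderOf g = p * c * Nat.gcd (orderOf g) (q ^ a) := h6.symm
        _ = p * Nat.gcd (orderOf g) (q ^ a) * c := by ring⟩
  have h6 : p ^ (a + 1) ∣ orderOf g := by
    rw [pow_succ, mul_comm]
    exact (Nat.mul_dvd_mul_left p h3).trans h5
  have h7 := (hp.pow_dvd_iff_le_factorization ho.ne').1 h6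
  omega

theorem gl_semisimple {F : Type*} [Field F] (p : ℕ) [Fact p.Prime] [CharP F p] {n : ℕ}
    (x : GL (Fin n) F) (hx : (orderOf x).Coprime p) :
    Module.End.IsSemisimple (Matrix.toLin' (x : Matrix (Fin n) (Fin n) F)) := by
  have hp : p.Prime := Fact.out
  obtain ⟨m, hm⟩ : ∃ m, m = orderOf x := ⟨_, rfl⟩
  have hXm : (x : Matrix (Fin n) (Fin n) F) ^ m = 1 := by
    have h1 := pow_orderOf_eq_one x
    rw [← hm] at h1
    have h2 := congrArg Units.val h1
    rwa [Units.val_pow_eq_pow_val, Units.val_one] at h2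
  have hTm : (Matrix.toLin' (x : Matrix (Fin n) (Fin n) F) : Module.End F (Fin n → F)) ^ m = 1 := by
    have h1 : (Matrix.toLinAlgEquiv' (x : Matrix (Fin n) (Fin n) F) : Module.End F (Fin n → F)) ^ m = 1 := by
      rw [← map_pow, hXm, map_one]
    exact h1
  have hmF : (m : F) ≠ 0 := by
    intro h
    rw [CharP.cast_eq_zero_iff F p m] at h
    rw [← hm] at hx
    exact hp.one_lt.ne' (Nat.Coprime.eq_one_of_dvd hx.symm h)
  exact Module.End.isSemisimple_of_squarefree_aeval_eq_zero (p := Polynomial.X ^ m - 1)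
    ((Polynomial.X_pow_sub_one_separable_iff.2 hmF).squarefree) (by simp [hTm])

/-- `p'`-elements of `GL_n` with the same characteristic polynomial are conjugate -/
theorem gl_conj_of_charpoly {F : Type*} [Field F] (p : ℕ) [Fact p.Prime] [CharP F p] {n : ℕ}
    (g h : GL (Fin n) F) (hg : (orderOf g).Coprime p) (hh : (orderOf h).Coprime p)
    (hc : (g : Matrix (Fin n) (Fin n) F).charpoly = (h : Matrix (Fin n) (Fin n) F).charpoly) :
    IsConj g h := by
  obtain ⟨e, he⟩ := Cfsg.Agent.S2388.conj_of_charpoly _ (Fin n → F) (Fin n → F)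
    (Matrix.toLin' (g : Matrix (Fin n) (Fin n) F)) (Matrix.toLin' (h : Matrix (Fin n) (Fin n) F)) rfl
    (gl_semisimple p g hg) (gl_semisimple p h hh)
    (by rw [Matrix.charpoly_toLin', Matrix.charpoly_toLin', hc])
  let E : GL (Fin n) F :=
    ⟨LinearMap.toMatrix' (e : (Fin n → F) →ₗ[F] (Fin n → F)),
      LinearMap.toMatrix' (e.symm : (Fin n → F) →ₗ[F] (Fin n → F)),
      by rw [← LinearMap.toMatrix'_comp]; simp, by rw [← LinearMap.toMatrix'_comp]; simp⟩
  have hE : (E : Matrix (Fin n) (Fin n) F) * (g : Matrix (Fin n) (Fin n) F) =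
      (h : Matrix (Fin n) (Fin n) F) * (E : Matrix (Fin n) (Fin n) F) := by
    apply Matrix.toLin'.injective
    rw [Matrix.toLin'_mul, Matrix.toLin'_mul]
    show Matrix.toLin' (LinearMap.toMatrix' (e : (Fin n → F) →ₗ[F] (Fin n → F))) ∘ₗ _ =
      _ ∘ₗ Matrix.toLin' (LinearMap.toMatrix' (e : (Fin n → F) →ₗ[F] (Fin n → F)))
    rw [Matrix.toLin'_toMatrix']
    apply LinearMap.ext
    intro v
    exact he v
  rw [isConj_iff]
  refine ⟨E, ?_⟩
  rw [mul_inv_eq_iff_eq_mul]
  exact Units.ext hE

/-- the monic polynomial with prescribed lower coefficients -/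
noncomputable def polyOf {F : Type*} [Field F] {n : ℕ} (f : Fin n → F) : F[X] :=
  X ^ n + ∑ i : Fin n, C (f i) * X ^ (i : ℕ)

theorem polyOf_monic {F : Type*} [Field F] {n : ℕ} (f : Fin n → F) : (polyOf f).Monic :=
  monic_X_pow_add (degree_sum_fin_lt f)

theorem polyOf_natDegree {F : Type*} [Field F] {n : ℕ} (f : Fin n → F) : (polyOf f).natDegree = n := by
  rw [polyOf, natDegree_add_eq_left_of_degree_lt (by rw [degree_X_pow]; exact degree_sum_fin_lt f),
    natDegree_X_pow]

theorem polyOf_coeff {F : Type*} [Field F] {n : ℕ} (f : Fin n → F) (i : Fin n) :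
    (polyOf f).coeff i = f i := by
  classical
  rw [polyOf, coeff_add, coeff_X_pow, if_neg (by have := i.2; omega), zero_add, finsetSum_coeff]
  simp only [coeff_C_mul_X_pow]
  rw [Finset.sum_eq_single i]
  · rw [if_pos rfl]
  · intro j _ hj
    rw [if_neg]
    intro h
    exact hj (Fin.ext h.symm)
  · intro h
    exact absurd (Finset.mem_univ i) h

/-- monic polynomials of degree `n` are determined by their lower coefficients -/
theorem monic_ext {F : Type*} [Field F] {n : ℕ} {a b : F[X]} (ha : a.Monic) (hb : b.Monic)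
    (han : a.natDegree = n) (hbn : b.natDegree = n) (h : ∀ i : Fin n, a.coeff i = b.coeff i) : a = b := by
  ext k
  rcases lt_trichotomy k n with hk | hk | hk
  · exact h ⟨k, hk⟩
  · subst hk
    have h1 : a.coeff a.natDegree = 1 := ha.coeff_natDegree
    have h2 : b.coeff b.natDegree = 1 := hb.coeff_natDegree
    rw [han] at h1
    rw [hbn] at h2
    rw [h1, h2]
  · rw [coeff_eq_zero_of_natDegree_lt (by omega), coeff_eq_zero_of_natDegree_lt (by omega)]

theorem card_fun_mem {F : Type*} [Fintype F] {n : ℕ} (i₀ : Fin n) (A : Finset F) :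
    Nat.card {f : Fin n → F // f i₀ ∈ A} = A.card * Fintype.card F ^ (n - 1) := by
  classical
  have h1 : Nat.card {f : Fin n → F // f i₀ ∈ A} =
      (Fintype.piFinset (fun i => if i = i₀ then A else Finset.univ)).card := by
    rw [Nat.card_eq_fintype_card, Fintype.card_subtype]
    congr 1
    ext f
    simp only [Finset.mem_filter, Finset.mem_univ, true_and, Fintype.mem_piFinset]
    constructor
    · intro h i
      by_cases hi : i = i₀
      · subst hi; simpa using h
      · simp [hi]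
    · intro h
      simpa using h i₀
  rw [h1, Fintype.card_piFinset, ← Finset.mul_prod_erase Finset.univ _ (Finset.mem_univ i₀), if_pos rfl]
  congr 1
  rw [Finset.prod_congr rfl (g := fun _ => Fintype.card F), Finset.prod_const,
    Finset.card_erase_of_mem (Finset.mem_univ _), Finset.card_univ, Fintype.card_fin]
  intro i hi
  rw [if_neg (Finset.ne_of_mem_erase hi), Finset.card_univ]

theorem char_dvd_card (F : Type*) [Field F] [Fintype F] (p : ℕ) [Fact p.Prime] [CharP F p] :
    p ∣ Fintype.card F := by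
  obtain ⟨k, _, hk⟩ := FiniteField.card F p
  rw [hk]
  exact dvd_pow_self p k.ne_zero

/-- every monic polynomial of degree `n` with nonzero constant term is the characteristic
polynomial of a `p'`-element of `GL_n(q)` -/
theorem exists_gl_coprime_charpoly {F : Type*} [Field F] [Fintype F] (p : ℕ) [Fact p.Prime]
    [CharP F p] {n : ℕ} (χ : F[X]) (hχ : χ.Monic) (hn : χ.natDegree = n) (h0 : χ.coeff 0 ≠ 0) :
    ∃ g : GL (Fin n) F, (orderOf g).Coprime p ∧ (g : Matrix (Fin n) (Fin n) F).charpoly = χ := by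
  classical
  have hp : p.Prime := Fact.out
  obtain ⟨M, hM⟩ := exists_matrix_charpoly χ hχ hn
  have hdet : M.det ≠ 0 := by
    rw [Matrix.det_eq_sign_charpoly_coeff, hM]
    exact mul_ne_zero (pow_ne_zero _ (by simp)) h0
  obtain ⟨j, hj⟩ := exists_pow_coprime p (Fintype.card F) hp (char_dvd_card F p)
    (Matrix.GeneralLinearGroup.mkOfDetNeZero M hdet)
  refine ⟨(Matrix.GeneralLinearGroup.mkOfDetNeZero M hdet) ^ (Fintype.card F ^ j), hj, ?_⟩
  rw [Units.val_pow_eq_pow_val]
  show (M ^ _).charpoly = χ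
  rw [charpoly_pow_card_pow, hM]

theorem gl_charpoly_of_isConj {F : Type*} [Field F] {n : ℕ} {g h : GL (Fin n) F} (hgh : IsConj g h) :
    (g : Matrix (Fin n) (Fin n) F).charpoly = (h : Matrix (Fin n) (Fin n) F).charpoly := by
  rw [isConj_iff] at hgh
  obtain ⟨c, hc⟩ := hgh
  rw [← hc, Units.val_mul, Units.val_mul, Matrix.charpoly_mul_comm, ← mul_assoc, ← Units.val_mul,
    inv_mul_cancel, Units.val_one, one_mul]

end Cfsg.Agent.Lib.Helper19
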